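import Cfsg.Agent.H296.C7.Slots

/-!
# From a pure element to a root element
-/

set_option autoImplicit false
set_option linter.unusedSectionVars false
set_option linter.unusedSimpArgs false

namespace Cfsg.Agent.H296.C7

open QuadraticMap hiding proj
open Cfsg.Agent.LieClassical.OrthCore Cfsg.Agent.LieClassical.OrthTrans
open Cfsg.Agent.H882.Ten Cfsg.Agent.LieClassical.OrthFinite Cfsg.Agent.H883.C7

variable {F : Type*} [Field F] {κ : Type*} [Fintype κ] [DecidableEq κ] {ι : Type*} [Fintype ι] [DecidableEq ι]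
  {q : QuadraticForm F (κ → F)} {M : Subgroup (((ι → κ) → F) ≃ₗ[F] ((ι → κ) → F))}

theorem om_ne_one {u : κ → F} (hu : q u = 0) (hu0 : u ≠ 0) : om q u ≠ 1 := by
  intro h
  have h1 := LinearMap.congr_fun h u
  rw [om_apply, polar_self_of_sing hu, zero_smul, Module.End.one_apply] at h1
  exact hu0 h1.symm

theorem nn_ne_one {u z : κ → F} (hu : q u = 0) (hu0 : u ≠ 0) (hz : polar q u z = 0) : nn q u z ≠ 1 := by
  intro h
  have h1 := LinearMap.congr_fun h u
  rw [nn_apply, polar_self_of_sing hu, polar_comm q z u, hz, zero_smul, zero_smul, sub_zero,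
    Module.End.one_apply] at h1
  exact hu0 h1.symm

theorem isNn_sk {f : Module.End F (κ → F)} (h : IsNn q f) : Sk q f := by
  obtain ⟨u, z, -, -, -, -, rfl⟩ := h
  exact sk_nn u z

theorem not_om_nn (h2 : (2 : F) ≠ 0) (hq : Nondeg q) {f : Module.End F (κ → F)} (h : IsOm q f) (h' : IsNn q f) :
    False := by
  obtain ⟨w, hw0, hw, rfl⟩ := h
  obtain ⟨y, hy⟩ := LieClassical.OrthTrans.exists_hyp hq hw hw0
  have h1 := (isNn_sk h').self h2 y
  rw [om_apply, hy.pair, one_smul, hy.pair'] at h1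
  exact one_ne_zero h1

/-- Choice of the conjugating element and the vector in one slot: `f` and a conjugate of `f`. -/
theorem exists_same (h2 : (2 : F) ≠ 0) (hq : Nondeg q) (hd : 3 ≤ Fintype.card κ) {f : Module.End F (κ → F)}
    (hf : IsOm q f ∨ IsNn q f) : ∃ e ∈ E q, ∃ u, u ≠ 0 ∧ q u = 0 ∧ polar q u (f (cj e f u)) ≠ 0 ∧
      polar q u (cj e f (f u)) = polar q u (f (cj e f u)) := by
  rcases hf with ⟨v, hv0, hv, rfl⟩ | ⟨v, z, hv0, hv, hz, hqz, rfl⟩
  · obtain ⟨e, he, u, hu0, hu, h⟩ := nv_om h2 hq (by rw [Module.finrank_fintype_fun_eq_card]; exact hd) hv hv0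
    refine ⟨e, he, u, hu0, hu, h, ?_⟩
    rw [cj_om (E_le_O he)]
    exact (sy_om v).mul_comm' (sy_om _) u
  · obtain ⟨e, he, u, hu0, hu, h⟩ := nv_nn h2 hq hv hv0 hz hqz
    refine ⟨e, he, u, hu0, hu, h, ?_⟩
    rw [cj_nn (E_le_O he)]
    exact (sk_nn v z).mul_comm' (sk_nn _ _) u

theorem exists_mix (h2 : (2 : F) ≠ 0) (hq : Nondeg q) (hd : 3 ≤ Fintype.card κ) {f g : Module.End F (κ → F)}
    (hf : IsNn q f) (hg : IsOm q g) : ∃ e ∈ E q, ∃ u, u ≠ 0 ∧ q u = 0 ∧ polar q u (f (cj e g u)) ≠ 0 := by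
  obtain ⟨v, z, hv0, hv, hz, hqz, rfl⟩ := hf
  obtain ⟨w, hw0, hw, rfl⟩ := hg
  exact nv_mix h2 hq (by rw [Module.finrank_fintype_fun_eq_card]; exact hd) hv hv0 hz hqz hw hw0

/-- The conjugate of `c` by a permutation of the slots and by slot elements. -/
theorem exists_conj (h2 : (2 : F) ≠ 0) (hq : Nondeg q) (hd : 3 ≤ Fintype.card κ) (hG : Good (QT q ι))
    (hM : Over q M) {c : ι → Module.End F (κ → F)} (hP : PX M (op c)) (σ : Equiv.Perm ι) {S : Finset ι} {j : ι}
    (hj : IsNn q (c j)) (hσj : IsOm q (c ((σ * σ)⁻¹ j)))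
    (hS : ∀ l ∈ S, l ≠ j → (IsOm q (c l) ∨ IsNn q (c l)) ∧ (σ * σ)⁻¹ l = l) :
    ∃ (c' : ι → Module.End F (κ → F)) (u : ι → (κ → F)), PX M (op c') ∧ IsOm q (c' j) ∧
      (∀ l ∉ S, l ≠ j → c' l = c ((σ * σ)⁻¹ l)) ∧ (∀ l ∈ S, q (u l) = 0 ∧ u l ≠ 0) ∧
      (∀ l ∈ S, polar q (u l) (c l (c' l (u l))) ≠ 0) ∧
      (∀ l ∈ S, l ≠ j → polar q (u l) (c' l (c l (u l))) = polar q (u l) (c l (c' l (u l)))) := by
  have hex : ∀ l, ∃ e : (κ → F) ≃ₗ[F] (κ → F), ∃ u : κ → F, e ∈ E q ∧ (l ∉ S → l ≠ j → e = 1) ∧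
      (l ∈ S → (q u = 0 ∧ u ≠ 0) ∧ polar q u (c l (cj e (c ((σ * σ)⁻¹ l)) u)) ≠ 0 ∧
      (l ≠ j → polar q u (cj e (c ((σ * σ)⁻¹ l)) (c l u)) = polar q u (c l (cj e (c ((σ * σ)⁻¹ l)) u)))) := by
    intro l
    by_cases hlj : l = j
    · subst hlj
      obtain ⟨e, he, u, hu0, hu, h⟩ := exists_mix h2 hq hd hj hσj
      exact ⟨e, u, he, fun _ h => absurd rfl h, fun _ => ⟨⟨hu, hu0⟩, h, fun h => absurd rfl h⟩⟩
    · by_cases hlS : l ∈ S
      · obtain ⟨h1, h3⟩ := hS l hlS hlj
        obtain ⟨e, he, u, hu0, hu, h, h'⟩ := exists_same h2 hq hd h1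
        refine ⟨e, u, he, fun h => absurd hlS h, fun _ => ⟨⟨hu, hu0⟩, ?_, fun _ => ?_⟩⟩
        · rw [h3]; exact h
        · rw [h3]; exact h'
      · exact ⟨1, 0, (E q).one_mem, fun _ _ => rfl, fun h => absurd h hlS⟩
  choose e u he h1 h3 using hex
  refine ⟨fun l => cj (e l) (c ((σ * σ)⁻¹ l)), u, ?_, ?_, ?_, fun l hl => (h3 l hl).1, fun l hl => (h3 l hl).2.1,
    fun l hl => (h3 l hl).2.2⟩
  · have h4 := PX_cj hP (pe_mem h2 hG hM σ)
    rw [cj_pe_op] at h4
    have h5 := PX_cj h4 (opE_mem h2 hG hM he)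
    rw [cj_opE_op] at h5
    exact h5
  · obtain ⟨w, hw0, hw, hwe⟩ := hσj
    refine ⟨e j w, ?_, ?_, ?_⟩
    · intro h
      exact hw0 ((map_eq_zero_iff _ (e j).injective).1 h)
    · rw [E_le_O (he j), hw]
    · show cj (e j) (c ((σ * σ)⁻¹ j)) = _
      rw [hwe, cj_om (E_le_O (he j))]
  · intro l hl hlj
    show cj (e l) (c ((σ * σ)⁻¹ l)) = _
    rw [h1 l hl hlj, one_cj]

/-- The three-cycle `a → b → c → a` is a square. -/
theorem exists_cycle {a b c : ι} (hab : a ≠ b) (hac : a ≠ c) (hbc : b ≠ c) :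
    ∃ σ : Equiv.Perm ι, (σ * σ)⁻¹ b = a ∧ (σ * σ)⁻¹ c = b ∧ (σ * σ)⁻¹ a = c ∧
      ∀ l, l ≠ a → l ≠ b → l ≠ c → (σ * σ)⁻¹ l = l := by
  -- `σ = (a → c → b → a)`, `(σ σ)⁻¹ = σ`
  have key : ∀ (τ : Equiv.Perm ι), τ b = a → τ a = c → τ c = b → (∀ l, l ≠ a → l ≠ b → l ≠ c → τ l = l) →
      ∃ σ : Equiv.Perm ι, (σ * σ)⁻¹ b = a ∧ (σ * σ)⁻¹ c = b ∧ (σ * σ)⁻¹ a = c ∧
      ∀ l, l ≠ a → l ≠ b → l ≠ c → (σ * σ)⁻¹ l = l := by
    intro τ h1 h2 h3 h4
    have h5 : (τ * τ)⁻¹ = τ := by
      rw [inv_eq_iff_mul_eq_one]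
      ext l
      show τ (τ (τ l)) = l
      by_cases ha : l = a
      · rw [ha, h2, h3, h1]
      by_cases hb : l = b
      · rw [hb, h1, h2, h3]
      by_cases hc : l = c
      · rw [hc, h3, h1, h2]
      rw [h4 l ha hb hc, h4 l ha hb hc, h4 l ha hb hc]
    exact ⟨τ, by rw [h5, h1], by rw [h5, h3], by rw [h5, h2], fun l x y z => by rw [h5, h4 l x y z]⟩
  refine key (Equiv.swap a b * Equiv.swap a c) ?_ ?_ ?_ ?_
  · show Equiv.swap a b (Equiv.swap a c b) = a
    rw [Equiv.swap_apply_of_ne_of_ne hab.symm hbc, Equiv.swap_apply_right]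
  · show Equiv.swap a b (Equiv.swap a c a) = c
    rw [Equiv.swap_apply_left, Equiv.swap_apply_of_ne_of_ne hac.symm hbc.symm]
  · show Equiv.swap a b (Equiv.swap a c c) = b
    rw [Equiv.swap_apply_right, Equiv.swap_apply_left]
  · intro l h1 h2 h3
    show Equiv.swap a b (Equiv.swap a c l) = l
    rw [Equiv.swap_apply_of_ne_of_ne h1 h3, Equiv.swap_apply_of_ne_of_ne h1 h2]

/-- A pure element with one slot `nn` and the others `om` or `1`. -/
structure Pure1 (q : QuadraticForm F (κ → F)) (M : Subgroup (((ι → κ) → F) ≃ₗ[F] ((ι → κ) → F)))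
    (c : ι → Module.End F (κ → F)) (j : ι) : Prop where
  nn : IsNn q (c j)
  om : ∀ l, l ≠ j → c l = 1 ∨ IsOm q (c l)
  px : PX M (op c)

theorem isNn_smul {f : Module.End F (κ → F)} (h : IsNn q f) {s : F} (hs : s ≠ 0) : IsNn q (s • f) := by
  obtain ⟨u, z, hu0, hu, hz, hqz, rfl⟩ := h
  refine ⟨u, s • z, hu0, hu, by rw [polar_smul_right, hz, smul_zero], ?_, (nn_smul_right u z s).symm⟩
  rw [QuadraticMap.map_smul, smul_eq_mul]
  exact mul_ne_zero (mul_ne_zero hs hs) hqz

/-- absorbing a scalar -/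
theorem pure1_of_smul {d : ι → Module.End F (κ → F)} {j : ι} {s : F} (hs : s ≠ 0) (h1 : IsNn q (d j))
    (h : ∀ l, l ≠ j → d l = 1 ∨ IsOm q (d l)) (hP : PX M (s • op d)) :
    Pure1 q M (Function.update d j (s • d j)) j where
  nn := by rw [Function.update_self]; exact isNn_smul h1 hs
  om := fun l hl => by rw [Function.update_of_ne hl]; exact h l hl
  px := by rw [op_update_smul, Function.update_eq_self]; exact hP

/-- **Case B**: a slot with `c i0 = 1`. -/
theorem stepB [Finite F] (hA : OpA q ι) (H : Hyp7 q) (hG : Good (QT q ι)) (hM : Over q M)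
    {c : ι → Module.End F (κ → F)} {i j i0 : ι} (hi : IsOm q (c i)) (hj : IsNn q (c j)) (h0 : c i0 = 1)
    (hc : ∀ l, c l = 1 ∨ IsOm q (c l) ∨ IsNn q (c l)) (hP : PX M (op c)) :
    ∃ (d : ι → Module.End F (κ → F)), Pure1 q M d i0 ∧ IsOm q (d i) ∧ ∀ l, l ≠ i0 → d l = 1 → c l = 1 := by
  classical
  have h2 := H.two
  have hq := H.nd
  have hij : i ≠ j := by
    rintro rfl
    exact not_om_nn h2 hq hi hj
  have hi0 : i ≠ i0 := by
    rintro rfl
    obtain ⟨w, hw0, hw, hwe⟩ := hi
    exact om_ne_one hw hw0 (hwe.symm.trans h0)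
  have hj0 : j ≠ i0 := by
    rintro rfl
    obtain ⟨u, z, hu0, hu, hz, hqz, hue⟩ := hj
    exact nn_ne_one hu hu0 hz (hue.symm.trans h0)
  obtain ⟨σ, s1, s2, s3, s4⟩ := exists_cycle hij hi0 hj0
  let S : Finset ι := Finset.univ.filter fun l => l ≠ i ∧ l ≠ i0 ∧ c l ≠ 1
  have hSm : ∀ l, l ∈ S ↔ l ≠ i ∧ l ≠ i0 ∧ c l ≠ 1 := fun l => by simp [S]
  have hjS : j ∈ S := (hSm j).2 ⟨hij.symm, hj0, by
    obtain ⟨u, z, hu0, hu, hz, hqz, hue⟩ := hj
    rw [hue]
    exact nn_ne_one hu hu0 hz⟩
  have hiS : i ∉ S := fun h => ((hSm i).1 h).1 rfl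
  have hi0S : i0 ∉ S := fun h => ((hSm i0).1 h).2.1 rfl
  obtain ⟨c', u, hP', hcj, hcS, hu, hne, hsym⟩ := exists_conj h2 hq H.three hG hM hP σ (S := S) hj
    (by rw [s1]; exact hi) (fun l hl hlj => by
      obtain ⟨h1, h3, h4⟩ := (hSm l).1 hl
      exact ⟨(hc l).resolve_left h4, s4 l h1 hlj h3⟩)
  obtain ⟨w, hw0, hw, hwe⟩ := hi
  obtain ⟨w', hw0', hw', hwe'⟩ := hcj
  have hc'i : c' i = 1 := by rw [hcS i hiS hij, s3, h0]
  have hc'i0 : c' i0 = c j := by rw [hcS i0 hi0S hj0.symm, s2]
  obtain ⟨s, hs, h5⟩ := core hA h2 hG hM hP hP' hw hw' hwe hwe' (isNn_sk hj)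
    (by rw [hc'i, mul_one, om_om hw]) (a := 1) (b := 1) (by rw [hc'i, mul_one, one_smul, hwe])
    (by rw [hc'i, one_mul, one_smul, hwe]) hiS hjS hu hne hsym
  have hcomm : ∀ l ∉ S, c l * c' l = c' l * c l := by
    intro l hl
    by_cases h1 : l = i
    · rw [h1, hc'i, one_mul, mul_one]
    by_cases h3 : l = i0
    · rw [h3, h0, one_mul, mul_one]
    have h4 : c l = 1 := by
      by_contra h4
      exact hl ((hSm l).2 ⟨h1, h3, h4⟩)
    rw [h4, one_mul, mul_one]
  have hfun : (fun l => if l ∈ S then om q (u l) else c' l * c l) =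
      fun l => if l ∈ S then om q (u l) else c l * c' l := by
    funext l
    by_cases hl : l ∈ S
    · rw [if_pos hl, if_pos hl]
    · rw [if_neg hl, if_neg hl, hcomm l hl]
  rw [hfun, ← two_smul F, smul_smul] at h5
  set d : ι → Module.End F (κ → F) := fun l => if l ∈ S then om q (u l) else c l * c' l with hd
  have hdS : ∀ l ∈ S, d l = om q (u l) := fun l hl => if_pos hl
  have hdi : d i = om q w := by
    rw [hd]
    show (if i ∈ S then _ else _) = _
    rw [if_neg hiS, hc'i, mul_one, hwe]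
  have hdi0 : d i0 = c j := by
    rw [hd]
    show (if i0 ∈ S then _ else _) = _
    rw [if_neg hi0S, h0, one_mul, hc'i0]
  have hdo : ∀ l, l ∉ S → l ≠ i → l ≠ i0 → d l = 1 ∧ c l = 1 := by
    intro l hl h1 h3
    have h4 : c l = 1 := by
      by_contra h4
      exact hl ((hSm l).2 ⟨h1, h3, h4⟩)
    refine ⟨?_, h4⟩
    have hlj : l ≠ j := fun h => hl (h ▸ hjS)
    rw [hd]
    show (if l ∈ S then _ else _) = _
    rw [if_neg hl, hcS l hl hlj, s4 l h1 hlj h3, h4, one_mul]
  refine ⟨_, pure1_of_smul (d := d) (j := i0) (mul_ne_zero hs h2) (by rw [hdi0]; exact hj) ?_ h5, ?_, ?_⟩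
  · intro l hl
    by_cases hlS : l ∈ S
    · exact Or.inr ⟨u l, (hu l hlS).2, (hu l hlS).1, hdS l hlS⟩
    by_cases hli : l = i
    · exact Or.inr ⟨w, hw0, hw, by rw [hli, hdi]⟩
    · exact Or.inl (hdo l hlS hli hl).1
  · rw [Function.update_of_ne hi0, hdi]
    exact ⟨w, hw0, hw, rfl⟩
  · intro l hl
    rw [Function.update_of_ne hl]
    intro h1
    by_cases hlS : l ∈ S
    · rw [hdS l hlS] at h1
      exact absurd h1 (om_ne_one (hu l hlS).1 (hu l hlS).2)
    by_cases hli : l = i
    · rw [hli, hdi] at h1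
      exact absurd h1 (om_ne_one hw hw0)
    · exact (hdo l hlS hli hl).2

/-- replace a skew slot by a multiple of `w ∧ w'` -/
theorem replace (H : Hyp7 q) (hG : Good (QT q ι)) (hM : Over q M) {c : ι → Module.End F (κ → F)} {l l' : ι}
    (hl : l' ≠ l) (hl' : IsOm q (c l')) (hn : IsNn q (c l)) (hP : PX M (op c)) {w w' : κ → F} (hyp : Hyp q w w') :
    ∃ r : F, r ≠ 0 ∧ PX M (op (Function.update c l (r • nn q w w'))) := by
  obtain ⟨v, hv0, hv, hve⟩ := hl'
  have hz : ∀ f g : Module.End F (κ → F), op (Function.update c l f) * op (Function.update c l g) = 0 := by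
    intro f g
    rw [← op_mul]
    refine op_eq_zero (l := l') ?_
    rw [Function.update_of_ne hl, Function.update_of_ne hl, hve, om_om hv]
  let Z : AddSubgroup (Module.End F (κ → F)) :=
    { carrier := {f | PX M (op (Function.update c l f))}
      zero_mem' := by
        show PX M (op (Function.update c l 0))
        rw [op_eq_zero (l := l) (Function.update_self ..)]
        exact PX_zero
      add_mem' := by
        intro f g hf hg
        show PX M (op (Function.update c l (f + g)))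
        rw [op_update_add]
        exact PX_add hf hg (hz f g)
      neg_mem' := by
        intro f hf
        show PX M (op (Function.update c l (-f)))
        have h1 : -f = (-1 : F) • f := by module
        have h3 := PX_neg hf (hz f f)
        have h4 : -op (Function.update c l f) = (-1 : F) • op (Function.update c l f) := by module
        rw [h1, op_update_smul, ← h4]
        exact h3 }
  have hZ : ∀ e ∈ E q, ∀ f ∈ Z, cj e f ∈ Z := by
    intro e he f hf
    show PX M (op (Function.update c l (cj e f)))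
    rw [← cj_slE_op]
    exact PX_cj hf (slE_mem H.two hG hM l he)
  obtain ⟨u, z, hu0, hu, hz', hqz, hue⟩ := hn
  obtain ⟨r, hr, h1⟩ := lemT H.two H.nd (by rw [Module.finrank_fintype_fun_eq_card]; exact H.three) hZ hu hu0 hz' hqz
    (by
      show PX M (op (Function.update c l (nn q u z)))
      rw [← hue, Function.update_eq_self]
      exact hP) hyp
  exact ⟨r, hr, h1⟩

/-- **Case A**: no slot with `c l = 1` and at least two skew slots. -/
theorem stepA [Finite F] (hA : OpA q ι) (H : Hyp7 q) (hG : Good (QT q ι)) (hM : Over q M)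
    {c : ι → Module.End F (κ → F)} {i j k : ι} (hi : IsOm q (c i)) (hj : IsNn q (c j)) (hk : IsNn q (c k))
    (hjk : j ≠ k) (hc : ∀ l, IsOm q (c l) ∨ IsNn q (c l)) (hP : PX M (op c)) :
    ∃ (d : ι → Module.End F (κ → F)), Pure1 q M d k ∧ ∀ l, l ≠ k → IsOm q (d l) := by
  classical
  have h2 := H.two
  have hq := H.nd
  have hij : i ≠ j := by
    rintro rfl
    exact not_om_nn h2 hq hi hj
  have hik : i ≠ k := by
    rintro rfl
    exact not_om_nn h2 hq hi hk
  obtain ⟨σ, s1, s2, s3, s4⟩ := exists_cycle hij hik hjk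
  let S : Finset ι := Finset.univ.filter fun l => l ≠ i ∧ l ≠ k
  have hSm : ∀ l, l ∈ S ↔ l ≠ i ∧ l ≠ k := fun l => by simp [S]
  have hjS : j ∈ S := (hSm j).2 ⟨hij.symm, hjk⟩
  have hiS : i ∉ S := fun h => ((hSm i).1 h).1 rfl
  have hkS : k ∉ S := fun h => ((hSm k).1 h).2 rfl
  obtain ⟨c0, u, hP0, hcj, hcS, hu, hne, hsym⟩ := exists_conj h2 hq H.three hG hM hP σ (S := S) hj
    (by rw [s1]; exact hi) (fun l hl hlj => by
      obtain ⟨h1, h3⟩ := (hSm l).1 hl
      exact ⟨hc l, s4 l h1 hlj h3⟩)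
  obtain ⟨w, hw0, hw, hwe⟩ := hi
  obtain ⟨y, hy⟩ := LieClassical.OrthTrans.exists_hyp hq hw hw0
  obtain ⟨v, z, hv0, hv, hvz, hqz, hve⟩ := hk
  obtain ⟨x, hx, hzx⟩ := exists_pp h2 hq hv hv0 hvz hqz
  have hc0i : c0 i = c k := by rw [hcS i hiS hij, s3]
  have hc0k : c0 k = c j := by rw [hcS k hkS hjk.symm, s2]
  -- replace the slots `i` and `k`
  obtain ⟨r, hr, hP1⟩ := replace H hG hM hij.symm hcj (by rw [hc0i, hve]; exact ⟨v, z, hv0, hv, hvz, hqz, rfl⟩)
    hP0 hy
  set c1 := Function.update c0 i (r • nn q w y) with hc1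
  have hc1j : c1 j = c0 j := Function.update_of_ne hij.symm _ _
  have hc1k : c1 k = c j := by rw [hc1, Function.update_of_ne hik.symm, hc0k]
  obtain ⟨r', hr', hP2⟩ := replace H hG hM hjk (by rw [hc1j]; exact hcj) (by rw [hc1k]; exact hj) hP1 hx
  set c' := Function.update c1 k (r' • nn q v x) with hc'
  have hc'k : c' k = r' • nn q v x := Function.update_self ..
  have hc'i : c' i = r • nn q w y := by rw [hc', Function.update_of_ne hik, hc1, Function.update_self]
  have hc'o : ∀ l, l ≠ i → l ≠ k → c' l = c0 l := fun l h1 h3 => by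
    rw [hc', Function.update_of_ne h3, hc1, Function.update_of_ne h1]
  have hc'S : ∀ l ∈ S, c' l = c0 l := fun l hl => hc'o l ((hSm l).1 hl).1 ((hSm l).1 hl).2
  obtain ⟨w', hw0', hw', hwe'⟩ := hcj
  obtain ⟨s, hs, h5⟩ := core hA h2 hG hM hP hP2 hw hw' hwe ((hc'S j hjS).trans hwe') (isNn_sk hj)
    (by rw [hc'i, mul_smul_comm, smul_mul_assoc, om_nn_hyp hy, om_om hw, smul_zero]) (a := r) (b := r * -1)
    (by rw [hc'i, hwe, mul_smul_comm, om_nn_hyp hy]) (by rw [hc'i, hwe, smul_mul_assoc, nn_om_hyp hy, smul_smul])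
    hiS hjS hu (fun l hl => by rw [hc'S l hl]; exact hne l hl)
    (fun l hl hlj => by rw [hc'S l hl]; exact hsym l hl hlj)
  let D : Module.End F (κ → F) → Module.End F (κ → F) → ι → Module.End F (κ → F) := fun f g l =>
    if l ∈ S then om q (u l) else if l = i then f else g
  have hik' : ∀ l, l ∉ S → l = i ∨ l = k := by
    intro l hl
    by_contra hcon
    push Not at hcon
    exact hl ((hSm l).2 hcon)
  have e1 : (fun l => if l ∈ S then om q (u l) else c l * c' l) = D (r • om q w) (r' • (nn q v z * nn q v x)) := by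
    funext l
    by_cases hl : l ∈ S
    · simp only [D, if_pos hl]
    · simp only [D, if_neg hl]
      rcases hik' l hl with rfl | rfl
      · rw [if_pos rfl, hc'i, hwe, mul_smul_comm, om_nn_hyp hy]
      · rw [if_neg hik.symm, hc'k, hve, mul_smul_comm]
  have e2 : (fun l => if l ∈ S then om q (u l) else c' l * c l) = D ((r * -1) • om q w) (r' • (nn q v x * nn q v z)) := by
    funext l
    by_cases hl : l ∈ S
    · simp only [D, if_pos hl]
    · simp only [D, if_neg hl]
      rcases hik' l hl with rfl | rfl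
      · rw [if_pos rfl, hc'i, hwe, smul_mul_assoc, nn_om_hyp hy, smul_smul]
      · rw [if_neg hik.symm, hc'k, hve, smul_mul_assoc]
  have hDi : ∀ f g, D f g = Function.update (D 0 g) i f := by
    intro f g
    funext l
    by_cases hl : l = i
    · subst hl
      rw [Function.update_self]
      simp only [D, if_neg hiS, if_true]
    · rw [Function.update_of_ne hl]
      simp only [D, if_neg hl]
  have hDk : ∀ f g, D f g = Function.update (D f 0) k g := by
    intro f g
    funext l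
    by_cases hl : l = k
    · subst hl
      rw [Function.update_self]
      simp only [D, if_neg hkS, if_neg hik.symm]
    · rw [Function.update_of_ne hl]
      by_cases hlS : l ∈ S
      · simp only [D, if_pos hlS]
      · rcases hik' l hlS with h | h
        · simp only [D, if_neg hlS, if_pos h]
        · exact absurd h hl
  have hsmi : ∀ (a : F) f g, op (D (a • f) g) = a • op (D f g) := by
    intro a f g
    rw [hDi, op_update_smul, ← hDi]
  have hsmk : ∀ (a : F) f g, op (D f (a • g)) = a • op (D f g) := by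
    intro a f g
    rw [hDk, op_update_smul, ← hDk]
  have hadd : ∀ f g g', op (D f (g + g')) = op (D f g) + op (D f g') := by
    intro f g g'
    rw [hDk, op_update_add, ← hDk, ← hDk]
  have e3 : op (D (r • om q w) (r' • (nn q v z * nn q v x))) + op (D ((r * -1) • om q w) (r' • (nn q v x * nn q v z))) =
      (r * r') • op (D (om q w) (nn q v z)) := by
    have e4 := nn_comm_hyp hx hvz hzx
    have e5 : op (D (om q w) (nn q v z)) = op (D (om q w) (nn q v z * nn q v x)) +
        (-1 : F) • op (D (om q w) (nn q v x * nn q v z)) := by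
      rw [← hsmk, ← hadd, e4]
    rw [hsmi, hsmi, hsmk, hsmk, e5]
    module
  rw [e1, e2, e3, smul_smul] at h5
  have hdk : D (om q w) (nn q v z) k = nn q v z := by simp only [D, if_neg hkS, if_neg hik.symm]
  have hdo : ∀ l, l ≠ k → IsOm q (D (om q w) (nn q v z) l) := by
    intro l hl
    by_cases hlS : l ∈ S
    · simp only [D, if_pos hlS]
      exact ⟨u l, (hu l hlS).2, (hu l hlS).1, rfl⟩
    · rcases hik' l hlS with h | h
      · simp only [D, if_neg hlS, if_pos h]
        exact ⟨w, hw0, hw, rfl⟩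
      · exact absurd h hl
  refine ⟨_, pure1_of_smul (d := D (om q w) (nn q v z)) (j := k) (mul_ne_zero hs (mul_ne_zero hr hr')) ?_ ?_ h5, ?_⟩
  · rw [hdk]; exact ⟨v, z, hv0, hv, hvz, hqz, rfl⟩
  · intro l hl
    exact Or.inr (hdo l hl)
  · intro l hl
    rw [Function.update_of_ne hl]
    exact hdo l hl

/-- **The end**: one skew slot, the others `om`. -/
theorem final (H : Hyp7 q) (ht : 2 ≤ Fintype.card ι) {c : ι → Module.End F (κ → F)} {j : ι}
    (hj : IsNn q (c j)) (hc : ∀ l, l ≠ j → IsOm q (c l)) (hP : PX M (op c)) :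
    ∃ (a : ι → (κ → F)) (j : ι) (z : κ → F), (∀ l, a l ≠ 0 ∧ q (a l) = 0) ∧ polar q (a j) z = 0 ∧ q z ≠ 0 ∧
      H883.Root.Has (QT q ι) M (tp a) (tp (Function.update a j z)) := by
  classical
  obtain ⟨v, z, hv0, hv, hvz, hqz, hve⟩ := hj
  have h1 : ∀ l, ∃ a : κ → F, a ≠ 0 ∧ q a = 0 ∧ (l ≠ j → c l = om q a) ∧ (l = j → a = v) := by
    intro l
    by_cases hl : l = j
    · exact ⟨v, hv0, hv, fun h => absurd hl h, fun _ => rfl⟩
    · obtain ⟨w, hw0, hw, hwe⟩ := hc l hl
      exact ⟨w, hw0, hw, fun _ => hwe, fun h => absurd h hl⟩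
  choose a ha0 ha hao haj using h1
  have haj' : a j = v := haj j rfl
  obtain ⟨k, hk⟩ : ∃ k, k ≠ j := by
    have : Nontrivial ι := Fintype.one_lt_card_iff_nontrivial.1 (by omega)
    exact exists_ne j
  have hpz : ∀ x : ι → (κ → F), polar (QT q ι) (tp (Function.update a j z)) (tp x) =
      polar q z (x j) * ∏ l ∈ Finset.univ.erase j, polar q (a l) (x l) := by
    intro x
    rw [polar_tp H.two, ← Finset.mul_prod_erase _ _ (Finset.mem_univ j), Function.update_self]
    congr 1
    refine Finset.prod_congr rfl fun l hl => ?_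
    rw [Function.update_of_ne (Finset.ne_of_mem_erase hl)]
  have hpa : ∀ x : ι → (κ → F), polar (QT q ι) (tp a) (tp x) =
      polar q v (x j) * ∏ l ∈ Finset.univ.erase j, polar q (a l) (x l) := by
    intro x
    rw [polar_tp H.two, ← Finset.mul_prod_erase _ _ (Finset.mem_univ j), haj']
  have hQ : ∀ x, (∃ l, polar q (x l) (x l) = 0) → (QT q ι) (tp x) = 0 := by
    rintro x ⟨l, hl⟩
    have h3 : 2 * (QT q ι) (tp x) = 0 := by
      rw [← polar_self', polar_tp H.two]
      exact Finset.prod_eq_zero (Finset.mem_univ l) hl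
    exact (mul_eq_zero.1 h3).resolve_left H.two
  have hQa : (QT q ι) (tp a) = 0 := hQ a ⟨j, polar_self_of_sing (ha j)⟩
  have hQz : (QT q ι) (tp (Function.update a j z)) = 0 :=
    hQ _ ⟨k, by rw [Function.update_of_ne hk]; exact polar_self_of_sing (ha k)⟩
  have hperp : polar (QT q ι) (tp a) (tp (Function.update a j z)) = 0 := by
    rw [hpa, Function.update_self, hvz, zero_mul]
  refine ⟨a, j, z, fun l => ⟨ha0 l, ha l⟩, by rw [haj', hvz], hqz, hQa, hperp, ?_⟩
  obtain ⟨g, hg, hgv⟩ := hP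
  have e : siegel (QT q ι) (tp a) (tp (Function.update a j z)) hQa hperp = g := by
    have h3 : ((siegel (QT q ι) (tp a) (tp (Function.update a j z)) hQa hperp :
        ((ι → κ) → F) ≃ₗ[F] ((ι → κ) → F)) : Module.End F ((ι → κ) → F)) = 1 + op c := by
      rw [siegel_eq, hQz, zero_smul, sub_zero]
      congr 1
      refine tp_ext fun x => ?_
      rw [nn_apply, hpz, hpa, op_tp]
      have e1 : tp (fun l => c l (x l)) =
          tp (Function.update (fun l => polar q (a l) (x l) • a l) j (c j (x j))) := by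
        congr 1
        funext l
        by_cases hl : l = j
        · rw [hl, Function.update_self]
        · rw [Function.update_of_ne hl, hao l hl, om_apply]
      have e2 : ∀ y : κ → F, tp (Function.update (fun l => polar q (a l) (x l) • a l) j y) =
          (∏ l ∈ Finset.univ.erase j, polar q (a l) (x l)) • tp (Function.update a j y) := by
        intro y
        have e3 : Function.update (fun l => polar q (a l) (x l) • a l) j y =
            fun l => (if l = j then (1 : F) else polar q (a l) (x l)) • Function.update a j y l := by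
          funext l
          by_cases hl : l = j
          · rw [hl, Function.update_self, Function.update_self, if_pos rfl, one_smul]
          · rw [Function.update_of_ne hl, Function.update_of_ne hl, if_neg hl]
        rw [e3, tp_smul_all, ← Finset.mul_prod_erase _ _ (Finset.mem_univ j), if_pos rfl, one_mul]
        congr 1
        refine Finset.prod_congr rfl fun l hl => ?_
        rw [if_neg (Finset.ne_of_mem_erase hl)]
      rw [e1, e2, hve, nn_apply]
      have e4 : tp (Function.update a j (polar q v (x j) • z - polar q z (x j) • v)) =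
          polar q v (x j) • tp (Function.update a j z) - polar q z (x j) • tp a := by
        have e5 : polar q v (x j) • z - polar q z (x j) • v = polar q v (x j) • z + (-polar q z (x j)) • v := by
          module
        have e6 : tp (Function.update a j v) = tp a := by rw [← haj', Function.update_eq_self]
        rw [e5, tp_update_add, tp_update_smul, tp_update_smul, e6]
        module
      rw [e4]
      module
    ext1 v
    have h4 := LinearMap.congr_fun h3 v
    rw [hgv]
    exact h4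
  rw [e]
  exact hg

/-- **From a pure element to a root element.** -/
theorem root_of_pure_of_opA [Finite F] (hA : OpA q ι) (H : Hyp7 q) (ht : 2 ≤ Fintype.card ι)
    (hM : Over q M) {c : ι → Module.End F (κ → F)} {i j : ι} (hi : IsOm q (c i)) (hj : IsNn q (c j))
    (hc : ∀ l, c l = 1 ∨ IsOm q (c l) ∨ IsNn q (c l)) (hP : PX M (op c)) :
    ∃ (a : ι → (κ → F)) (j : ι) (z : κ → F), (∀ l, a l ≠ 0 ∧ q (a l) = 0) ∧ polar q (a j) z = 0 ∧ q z ≠ 0 ∧
      H883.Root.Has (QT q ι) M (tp a) (tp (Function.update a j z)) := by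
  classical
  have hG := H.good ht
  -- induction on the number of slots with `c l = 1`
  obtain ⟨n, hn⟩ : ∃ n, (Finset.univ.filter fun l => c l = 1).card = n := ⟨_, rfl⟩
  induction n using Nat.strong_induction_on generalizing c i j with
  | _ n ih =>
    by_cases h0 : ∃ i0, c i0 = 1
    · obtain ⟨i0, h0⟩ := h0
      obtain ⟨d, hd, hdi, hdl⟩ := stepB hA H hG hM hi hj h0 hc hP
      have hdn : d i0 ≠ 1 := by
        obtain ⟨u, z, hu0, hu, hz, hqz, hue⟩ := hd.nn
        rw [hue]
        exact nn_ne_one hu hu0 hz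
      have hlt : (Finset.univ.filter fun l => d l = 1).card < n := by
        rw [← hn]
        refine Finset.card_lt_card ⟨?_, ?_⟩
        · intro l hl
          rw [Finset.mem_filter] at hl ⊢
          have hl0 : l ≠ i0 := by
            rintro rfl
            exact hdn hl.2
          exact ⟨Finset.mem_univ _, hdl l hl0 hl.2⟩
        · intro hsub
          have h3 := hsub (Finset.mem_filter.2 ⟨Finset.mem_univ i0, h0⟩)
          rw [Finset.mem_filter] at h3
          exact hdn h3.2
      refine ih _ hlt hdi hd.nn (fun l => ?_) hd.px rfl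
      by_cases hl : l = i0
      · rw [hl]; exact Or.inr (Or.inr hd.nn)
      · rcases hd.om l hl with h | h
        · exact Or.inl h
        · exact Or.inr (Or.inl h)
    · push Not at h0
      have hc' : ∀ l, IsOm q (c l) ∨ IsNn q (c l) := fun l => (hc l).resolve_left (h0 l)
      by_cases h3 : ∃ k, k ≠ j ∧ IsNn q (c k)
      · obtain ⟨k, hk, hkn⟩ := h3
        obtain ⟨d, hd, hdl⟩ := stepA hA H hG hM hi hj hkn hk.symm hc' hP
        exact final H ht hd.nn hdl hd.px
      · push Not at h3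
        exact final H ht hj (fun l hl => (hc' l).resolve_right (h3 l hl)) hP

end Cfsg.Agent.H296.C7
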