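import Cfsg.Agent.H296.C7.RootOf
import Cfsg.Agent.H734.C7.OpA

/-!
# From a pure element to a root element (final form)
-/

set_option autoImplicit false
set_option linter.unusedSectionVars false

namespace Cfsg.Agent.H296.C7

open QuadraticMap hiding proj
open Cfsg.Agent.LieClassical.OrthCore Cfsg.Agent.LieClassical.OrthTrans
open Cfsg.Agent.H882.Ten Cfsg.Agent.LieClassical.OrthFinite Cfsg.Agent.H883.C7

variable {F : Type*} [Field F] {κ : Type*} [Fintype κ] [DecidableEq κ] {ι : Type*} [Fintype ι] [DecidableEq ι]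

/-- **From a pure element to a root element.** -/
theorem root_of_pure [Finite F] {q : QuadraticForm F (κ → F)} (H : Hyp7 q) (ht : 2 ≤ Fintype.card ι)
    {M : Subgroup (((ι → κ) → F) ≃ₗ[F] ((ι → κ) → F))} (hM : Over q M) {c : ι → Module.End F (κ → F)} {i j : ι}
    (hi : IsOm q (c i)) (hj : IsNn q (c j)) (hc : ∀ l, c l = 1 ∨ IsOm q (c l) ∨ IsNn q (c l)) (hP : PX M (op c)) :
    ∃ (a : ι → (κ → F)) (j : ι) (z : κ → F), (∀ l, a l ≠ 0 ∧ q (a l) = 0) ∧ polar q (a j) z = 0 ∧ q z ≠ 0 ∧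
      H883.Root.Has (QT q ι) M (tp a) (tp (Function.update a j z)) :=
  root_of_pure_of_opA (fun _ hu hu0 => H734.C7.opA H hu hu0) H ht hM hi hj hc hP

end Cfsg.Agent.H296.C7
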