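import Cfsg.Agent.H296.C7.Vec

/-!
# Operators on the tensor power: commutators of pure elements and the slot operators
-/

set_option autoImplicit false
set_option linter.unusedSectionVars false
set_option linter.unusedSimpArgs false

namespace Cfsg.Agent.H296.C7

open QuadraticMap hiding proj
open Cfsg.Agent.LieClassical.OrthCore Cfsg.Agent.LieClassical.OrthTrans
open Cfsg.Agent.H882.Ten Cfsg.Agent.LieClassical.OrthFinite Cfsg.Agent.H883.C7

variable {F : Type*} [Field F] {κ : Type*} [Fintype κ] [DecidableEq κ] {ι : Type*} [Fintype ι] [DecidableEq ι]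
  {q : QuadraticForm F (κ → F)} {M : Subgroup (((ι → κ) → F) ≃ₗ[F] ((ι → κ) → F))}

/-! ### `1 + T ∈ M` -/

theorem PX_zero : PX M 0 := ⟨1, M.one_mem, fun v => by simp⟩

theorem PX_add {T T' : Module.End F ((ι → κ) → F)} (hT : PX M T) (hT' : PX M T') (h : T * T' = 0) :
    PX M (T + T') := by
  obtain ⟨g, hg, h1⟩ := hT
  obtain ⟨g', hg', h1'⟩ := hT'
  refine ⟨g * g', M.mul_mem hg hg', fun v => ?_⟩
  have h3 : T (T' v) = 0 := LinearMap.congr_fun h v
  rw [LinearEquiv.mul_apply, h1', h1, map_add, h3, LinearMap.add_apply]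
  abel

theorem PX_neg {T : Module.End F ((ι → κ) → F)} (hT : PX M T) (h : T * T = 0) : PX M (-T) := by
  obtain ⟨g, hg, h1⟩ := hT
  refine ⟨g⁻¹, M.inv_mem hg, fun v => ?_⟩
  have h3 : T (T v) = 0 := LinearMap.congr_fun h v
  have h4 : g (v + (-T) v) = v := by
    rw [h1, LinearMap.neg_apply, map_add, map_neg, h3]
    abel
  conv_lhs => rw [← h4]
  exact LinearEquiv.symm_apply_apply g _

theorem PX_cj {T : Module.End F ((ι → κ) → F)} (hT : PX M T) {k : ((ι → κ) → F) ≃ₗ[F] ((ι → κ) → F)}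
    (hk : k ∈ M) : PX M (cj k T) := by
  obtain ⟨g, hg, h1⟩ := hT
  refine ⟨k * g * k⁻¹, M.mul_mem (M.mul_mem hk hg) (M.inv_mem hk), fun v => ?_⟩
  rw [LinearEquiv.mul_apply, LinearEquiv.mul_apply, h1, map_add, cj_apply]
  congr 1
  exact LinearEquiv.apply_symm_apply k v

theorem PX_comm {T T' : Module.End F ((ι → κ) → F)} (hT : PX M T) (hT' : PX M T') (h1 : T * T = 0)
    (h2 : T' * T' = 0) (h3 : T * T' * T = 0) (h4 : T' * T * T' = 0) : PX M (T * T' - T' * T) := by
  obtain ⟨g, hg, hv⟩ := hT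
  obtain ⟨g', hg', hv'⟩ := hT'
  obtain ⟨k, hk, kv⟩ := PX_neg ⟨g, hg, hv⟩ h1
  obtain ⟨k', hk', kv'⟩ := PX_neg ⟨g', hg', hv'⟩ h2
  refine ⟨g * g' * (k * k'), M.mul_mem (M.mul_mem hg hg') (M.mul_mem hk hk'), fun v => ?_⟩
  have h5 : T * T' * T' = 0 := by rw [mul_assoc, h2, mul_zero]
  have key : (1 + T) * (1 + T') * ((1 - T) * (1 - T')) = 1 + (T * T' - T' * T) := by
    simp only [mul_add, add_mul, mul_sub, sub_mul, one_mul, mul_one, ← mul_assoc, h1, h3, h4, h5, h2, zero_mul]
    abel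
  have h6 := LinearMap.congr_fun key v
  simp only [LinearEquiv.mul_apply, hv, hv', kv, kv']
  simp only [Module.End.mul_apply, LinearMap.add_apply, LinearMap.sub_apply, Module.End.one_apply] at h6
  simp only [LinearMap.neg_apply, LinearMap.sub_apply, Module.End.mul_apply]
  rw [← sub_eq_add_neg, ← sub_eq_add_neg]
  exact h6

/-! ### pure operators -/

theorem op_eq_zero {f : ι → Module.End F (κ → F)} {l : ι} (h : f l = 0) : op f = 0 := by
  have : f = Function.update f l ((0 : F) • f l) := by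
    rw [zero_smul]
    conv_rhs => rw [← h]
    rw [Function.update_eq_self]
  rw [this, op_update_smul, zero_smul]

theorem op_smul_all (a : ι → F) (f : ι → Module.End F (κ → F)) :
    op (fun l => a l • f l) = (∏ l, a l) • op f := by
  refine tp_ext fun x => ?_
  rw [LinearMap.smul_apply, op_tp, op_tp, ← tp_smul_all]
  rfl

theorem op_mul_sl (f : ι → Module.End F (κ → F)) (i : ι) (g : Module.End F (κ → F)) :
    op f * sl i g = op (Function.update f i (f i * g)) := by
  rw [sl, ← op_mul]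
  congr 1
  funext j
  by_cases h : j = i
  · subst h; rw [Function.update_self, Function.update_self]
  · rw [Function.update_of_ne h, Function.update_of_ne h, mul_one]

theorem sl_mul_op (f : ι → Module.End F (κ → F)) (i : ι) (g : Module.End F (κ → F)) :
    sl i g * op f = op (Function.update f i (g * f i)) := by
  rw [sl, ← op_mul]
  congr 1
  funext j
  by_cases h : j = i
  · subst h; rw [Function.update_self, Function.update_self]
  · rw [Function.update_of_ne h, Function.update_of_ne h, one_mul]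

theorem op_comm_sl {f : ι → Module.End F (κ → F)} {i : ι} {a : F} (h : f i = a • 1) (g : Module.End F (κ → F)) :
    op f * sl i g = sl i g * op f := by
  rw [op_mul_sl, sl_mul_op, h, smul_mul_assoc, mul_smul_comm, one_mul, mul_one]

theorem cj_opE_op (e : ι → ((κ → F) ≃ₗ[F] (κ → F))) (c : ι → Module.End F (κ → F)) :
    cj (opE e) (op c) = op (fun l => cj (e l) (c l)) := by
  refine tp_ext fun x => ?_
  rw [cj_apply, ← map_inv, opE_tp, op_tp, opE_tp, op_tp]
  rfl

theorem cj_pe_op (σ : Equiv.Perm ι) (c : ι → Module.End F (κ → F)) :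
    cj (pe σ) (op c) = op (fun l => c (σ⁻¹ l)) := by
  refine tp_ext fun x => ?_
  rw [cj_apply, ← map_inv, pe_tp, op_tp, pe_tp, op_tp]
  congr 1
  funext l
  congr 2
  rw [inv_inv]
  exact σ.apply_symm_apply l

theorem cj_slE_sl {i l : ι} (h : l ≠ i) (e : (κ → F) ≃ₗ[F] (κ → F)) (f : Module.End F (κ → F)) :
    cj (slE l e) (sl i f) = sl i f := by
  rw [cj_eq_iff, slE_toEnd, sl_comm h]

theorem cj_slE_op (l : ι) (e : (κ → F) ≃ₗ[F] (κ → F)) (c : ι → Module.End F (κ → F)) (f : Module.End F (κ → F)) :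
    cj (slE l e) (op (Function.update c l f)) = op (Function.update c l (cj e f)) := by
  rw [slE_eq, cj_opE_op]
  congr 1
  funext j
  by_cases h : j = l
  · subst h; rw [Pi.mulSingle_eq_same, Function.update_self, Function.update_self]
  · rw [Pi.mulSingle_eq_of_ne h, Function.update_of_ne h, Function.update_of_ne h, one_cj]

/-! ### elements of `M` -/

theorem opE_mem (h2 : (2 : F) ≠ 0) (hG : Good (QT q ι)) (hM : Over q M) {e : ι → ((κ → F) ≃ₗ[F] (κ → F))}
    (he : ∀ l, e l ∈ E q) : opE e ∈ M := by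
  refine hM.2 _ ?_ ⟨e, 1, by rw [map_one, mul_one]⟩
  have h1 : Subgroup.pi Set.univ (fun _ : ι => E q) ≤ (E (QT q ι)).comap (opE (F := F) (κ := κ) (ι := ι)) := by
    rw [Subgroup.pi_le_iff]
    rintro l _ ⟨x, hx, rfl⟩
    exact slE_mem_E h2 hG l hx
  exact h1 (fun l _ => he l)

theorem slE_mem (h2 : (2 : F) ≠ 0) (hG : Good (QT q ι)) (hM : Over q M) (l : ι) {e : (κ → F) ≃ₗ[F] (κ → F)}
    (he : e ∈ E q) : slE l e ∈ M :=
  hM.2 _ (slE_mem_E h2 hG l he) ⟨Pi.mulSingle l e, 1, by rw [map_one, mul_one, slE_eq]⟩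

theorem pe_mem (h2 : (2 : F) ≠ 0) (hG : Good (QT q ι)) (hM : Over q M) (σ : Equiv.Perm ι) : pe (σ * σ) ∈ M :=
  hM.2 _ (pe_sq_mem_E h2 hG σ) ⟨1, σ * σ, by rw [map_one, one_mul]⟩

/-! ### the additive group attached to a slot with `ω_w` -/

/-- The elements `T' * ω_w` (slot `i`) with `1 + T' ω_w ∈ M`. -/
def Zc (M : Subgroup (((ι → κ) → F) ≃ₗ[F] ((ι → κ) → F))) (i : ι) {w : κ → F} (hw : q w = 0) :
    AddSubgroup (Module.End F ((ι → κ) → F)) where
  carrier := {T | PX M T ∧ ∃ T', T = T' * sl i (om q w) ∧ ∀ f, T' * sl i f = sl i f * T'}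
  zero_mem' := ⟨PX_zero, 0, by rw [zero_mul], fun f => by rw [zero_mul, mul_zero]⟩
  add_mem' := by
    rintro _ _ ⟨h1, T1, rfl, c1⟩ ⟨h2, T2, rfl, c2⟩
    refine ⟨PX_add h1 h2 ?_, T1 + T2, by rw [add_mul], fun f => by rw [add_mul, mul_add, c1, c2]⟩
    rw [mul_assoc, c2, ← mul_assoc (sl i _) (sl i _), ← sl_mul, om_om hw, ← slA_apply, map_zero, zero_mul, mul_zero]
  neg_mem' := by
    rintro _ ⟨h1, T1, rfl, c1⟩
    refine ⟨PX_neg h1 ?_, -T1, LinearMap.ext fun v => rfl, fun f => LinearMap.ext fun v => ?_⟩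
    swap
    · have h3 : T1 (sl i f v) = sl i f (T1 v) := LinearMap.congr_fun (c1 f) v
      show -(T1 (sl i f v)) = sl i f (-(T1 v))
      rw [h3, map_neg]
    rw [mul_assoc, c1, ← mul_assoc (sl i _) (sl i _), ← sl_mul, om_om hw, ← slA_apply, map_zero, zero_mul, mul_zero]

theorem Zc_cj {i : ι} {w : κ → F} (hw : q w = 0) {l : ι} (h : l ≠ i) {e : (κ → F) ≃ₗ[F] (κ → F)}
    (he : slE l e ∈ M) {T : Module.End F ((ι → κ) → F)} (hT : T ∈ Zc M i hw) : cj (slE l e) T ∈ Zc M i hw := by
  obtain ⟨h1, T1, rfl, c1⟩ := hT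
  refine ⟨PX_cj h1 he, cj (slE l e) T1, ?_, fun f => ?_⟩
  · rw [cj_mul', cj_slE_sl h]
  · have h3 := congrArg (cj (slE l e)) (c1 f)
    rw [cj_mul', cj_mul', cj_slE_sl h] at h3
    exact h3

/-! ### the slot operators -/

/-- The slot operators (proved as `opA`). -/
def OpA (q : QuadraticForm F (κ → F)) (ι : Type*) [Fintype ι] [DecidableEq ι] : Prop :=
  ∀ (u : κ → F) (hu : q u = 0), u ≠ 0 → ∃ r : F, r ≠ 0 ∧ ∀ (l : ι) (Z : AddSubgroup (Module.End F ((ι → κ) → F))),
      (∀ (y : κ → F) (hy : polar q u y = 0), ∀ T ∈ Z, cj (slE l (siegel q u y hu hy)) T ∈ Z) →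
      ∀ T ∈ Z, r • (sl l (om q u) * T * sl l (om q u)) ∈ Z

/-- `ω_{u l}` in the slots of `S`. -/
noncomputable def opS (q : QuadraticForm F (κ → F)) (S : Finset ι) (u : ι → (κ → F)) : Module.End F ((ι → κ) → F) :=
  op (fun l => if l ∈ S then om q (u l) else 1)

theorem opAll (hA : OpA q ι) (S : Finset ι) {u : ι → (κ → F)} (hu : ∀ l ∈ S, q (u l) = 0 ∧ u l ≠ 0) :
    ∃ r : F, r ≠ 0 ∧ ∀ (Z : AddSubgroup (Module.End F ((ι → κ) → F))),
      (∀ l ∈ S, ∀ (h : q (u l) = 0) (y : κ → F) (hy : polar q (u l) y = 0), ∀ T ∈ Z,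
        cj (slE l (siegel q (u l) y h hy)) T ∈ Z) →
      ∀ T ∈ Z, r • (opS q S u * T * opS q S u) ∈ Z := by
  induction S using Finset.induction_on with
  | empty =>
    refine ⟨1, one_ne_zero, fun Z _ T hT => ?_⟩
    have : opS q (∅ : Finset ι) u = 1 := by
      rw [opS]
      simp only [Finset.notMem_empty, if_false, op_one]
    rw [this, one_mul, mul_one, one_smul]
    exact hT
  | insert l S hl ih =>
    obtain ⟨r, hr, h1⟩ := ih fun j hj => hu j (Finset.mem_insert_of_mem hj)
    obtain ⟨hl1, hl2⟩ := hu l (Finset.mem_insert_self _ _)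
    obtain ⟨r', hr', h3⟩ := hA (u l) hl1 hl2
    refine ⟨r' * r, mul_ne_zero hr' hr, fun Z hZ T hT => ?_⟩
    have h4 := h3 l Z (fun y hy T hT => hZ l (Finset.mem_insert_self _ _) hl1 y hy T hT) _
      (h1 Z (fun j hj => hZ j (Finset.mem_insert_of_mem hj)) T hT)
    have hf : Function.update (fun j => if j ∈ S then om q (u j) else 1) l (om q (u l)) =
        fun j => if j ∈ insert l S then om q (u j) else 1 := by
      funext j
      by_cases hj : j = l
      · subst hj
        rw [Function.update_self, if_pos (Finset.mem_insert_self _ _)]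
      · rw [Function.update_of_ne hj]
        by_cases hjS : j ∈ S
        · rw [if_pos hjS, if_pos (Finset.mem_insert_of_mem hjS)]
        · rw [if_neg hjS, if_neg]
          intro h
          rcases Finset.mem_insert.1 h with h | h
          · exact hj h
          · exact hjS h
    have e1 : sl l (om q (u l)) * opS q S u = opS q (insert l S) u := by
      rw [opS, sl_mul_op, if_neg hl, mul_one, hf, opS]
    have e2 : opS q S u * sl l (om q (u l)) = opS q (insert l S) u := by
      rw [opS, op_mul_sl, if_neg hl, one_mul, hf, opS]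
    have e3 : r' • (sl l (om q (u l)) * r • (opS q S u * T * opS q S u) * sl l (om q (u l))) =
        (r' * r) • (opS q (insert l S) u * T * opS q (insert l S) u) := by
      rw [mul_smul_comm, smul_mul_assoc, smul_smul, ← mul_assoc, ← mul_assoc, e1, mul_assoc _ (opS q S u), e2]
    rw [← e3]
    exact h4

theorem opS_op (S : Finset ι) (u : ι → (κ → F)) (c : ι → Module.End F (κ → F)) :
    opS q S u * op c * opS q S u =
      (∏ l ∈ S, polar q (u l) (c l (u l))) • op (fun l => if l ∈ S then om q (u l) else c l) := by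
  have h1 : ∏ l ∈ S, polar q (u l) (c l (u l)) = ∏ l, if l ∈ S then polar q (u l) (c l (u l)) else 1 := by
    rw [Finset.prod_ite_mem, Finset.univ_inter]
  rw [h1, ← op_smul_all, opS, ← op_mul, ← op_mul]
  congr 1
  funext l
  by_cases hl : l ∈ S
  · simp only [if_pos hl]
    rw [om_mul_om]
  · simp only [if_neg hl, one_mul, mul_one, one_smul]

/-- **The basic step.** -/
theorem core (hA : OpA q ι) (h2 : (2 : F) ≠ 0) (hG : Good (QT q ι)) (hM : Over q M)
    {c c' : ι → Module.End F (κ → F)} (hP : PX M (op c)) (hP' : PX M (op c')) {i j : ι}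
    {w w' : κ → F} (hw : q w = 0) (hw' : q w' = 0) (hci : c i = om q w) (hcj : c' j = om q w')
    (hsk : Sk q (c j)) (hmid : om q w * c' i * om q w = 0) {a b : F} (ha : c i * c' i = a • om q w)
    (hb : c' i * c i = b • om q w) {S : Finset ι} (hiS : i ∉ S) (hjS : j ∈ S) {u : ι → (κ → F)}
    (hu : ∀ l ∈ S, q (u l) = 0 ∧ u l ≠ 0) (hne : ∀ l ∈ S, polar q (u l) (c l (c' l (u l))) ≠ 0)
    (hsym : ∀ l ∈ S, l ≠ j → polar q (u l) (c' l (c l (u l))) = polar q (u l) (c l (c' l (u l)))) :
    ∃ s : F, s ≠ 0 ∧ PX M (s • (op (fun l => if l ∈ S then om q (u l) else c l * c' l) +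
      op (fun l => if l ∈ S then om q (u l) else c' l * c l))) := by
  have t1 : op c * op c = 0 := by
    rw [← op_mul]
    exact op_eq_zero (l := i) (by rw [hci, om_om hw])
  have t2 : op c' * op c' = 0 := by
    rw [← op_mul]
    exact op_eq_zero (l := j) (by rw [hcj, om_om hw'])
  have t3 : op c * op c' * op c = 0 := by
    rw [← op_mul, ← op_mul]
    exact op_eq_zero (l := i) (by rw [hci, hmid])
  have t4 : op c' * op c * op c' = 0 := by
    rw [← op_mul, ← op_mul]
    exact op_eq_zero (l := j) (by rw [hcj, om_mul_om, hsk.self h2, zero_smul])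
  have h1 := PX_comm hP hP' t1 t2 t3 t4
  rw [← op_mul, ← op_mul] at h1
  have hZ : op (fun l => c l * c' l) - op (fun l => c' l * c l) ∈ Zc M i hw := by
    refine ⟨h1, op (Function.update (fun l => c l * c' l) i (a • 1)) -
      op (Function.update (fun l => c' l * c l) i (b • 1)), ?_, fun f => ?_⟩
    · rw [sub_mul, op_mul_sl, op_mul_sl, Function.update_self, Function.update_self, Function.update_idem,
        Function.update_idem, smul_mul_assoc, smul_mul_assoc, one_mul, ← ha, ← hb, Function.update_eq_self,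
        Function.update_eq_self]
    · rw [sub_mul, mul_sub, op_comm_sl (a := a) (Function.update_self ..),
        op_comm_sl (a := b) (Function.update_self ..)]
  obtain ⟨r, hr, hr'⟩ := opAll hA S hu
  have h3 := (hr' (Zc M i hw) (fun l hl h y hy T hT =>
    Zc_cj hw (fun h' : l = i => hiS (h' ▸ hl)) (slE_mem h2 hG hM l (siegel_mem_E h hy)) hT) _ hZ).1
  rw [mul_sub, sub_mul, opS_op, opS_op] at h3
  have hAB : ∏ l ∈ S, polar q (u l) ((c' l * c l) (u l)) = -∏ l ∈ S, polar q (u l) ((c l * c' l) (u l)) := by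
    rw [← Finset.mul_prod_erase S _ hjS, ← Finset.mul_prod_erase S (fun l => polar q (u l) ((c l * c' l) (u l))) hjS]
    have e1 : polar q (u j) ((c' j * c j) (u j)) = -polar q (u j) ((c j * c' j) (u j)) := by
      have : Sy q (c' j) := by rw [hcj]; exact sy_om _
      exact hsk.mul_anti this _
    rw [e1, neg_mul]
    congr 2
    refine Finset.prod_congr rfl fun l hl => ?_
    exact hsym l (Finset.mem_of_mem_erase hl) (Finset.ne_of_mem_erase hl)
  rw [hAB] at h3
  refine ⟨r * ∏ l ∈ S, polar q (u l) ((c l * c' l) (u l)), mul_ne_zero hr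
    (Finset.prod_ne_zero_iff.2 fun l hl => hne l hl), ?_⟩
  convert h3 using 1
  module

end Cfsg.Agent.H296.C7
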