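import Cfsg.Agent.H883.C7.NIface

/-!
# One slot: singular lines, partners, skew and symmetric operators
-/

set_option autoImplicit false
set_option linter.unusedSectionVars false
set_option linter.unusedSimpArgs false

namespace Cfsg.Agent.H296.C7

open QuadraticMap hiding proj
open Cfsg.Agent.LieClassical.OrthCore Cfsg.Agent.LieClassical.OrthTrans
open Cfsg.Agent.H882.Ten Cfsg.Agent.LieClassical.OrthFinite Cfsg.Agent.H883.C7

variable {F : Type*} [Field F] {V : Type*} [AddCommGroup V] [Module F V] {q : QuadraticForm F V}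

/-- `E q` is transitive on the singular lines. -/
theorem exists_line (h2 : (2 : F) ≠ 0) (hq : Nondeg q) (hd : 3 ≤ Module.finrank F V) {w b : V}
    (hw : q w = 0) (hw0 : w ≠ 0) (hb : q b = 0) (hb0 : b ≠ 0) :
    ∃ e ∈ E q, ∃ s : F, s ≠ 0 ∧ e w = s • b := by
  by_cases hwb : polar q w b = 0
  · by_cases hc : ∃ c : F, w = c • (b - w)
    · obtain ⟨c, hc⟩ := hc
      have h1 : (1 + c) • w = c • b := by
        have : (1 + c) • w = w + c • w := by module
        rw [this]
        conv_lhs => rw [hc]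
        have h3 : c • (b - w) + c • (c • (b - w)) = c • (b - w) + c • w := by rw [← hc]
        rw [h3]
        module
      have h3 : 1 + c ≠ 0 := by
        intro h
        rw [h, zero_smul] at h1
        rcases smul_eq_zero.1 h1.symm with h4 | h4
        · rw [h4, add_zero] at h
          exact one_ne_zero h
        · exact hb0 h4
      have h4 : c ≠ 0 := by
        intro h
        rw [h, zero_smul] at h1
        rcases smul_eq_zero.1 h1 with h5 | h5
        · exact h3 (by rw [h]; exact h5)
        · exact hw0 h5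
      refine ⟨1, (E q).one_mem, (1 + c)⁻¹ * c, mul_ne_zero (inv_ne_zero h3) h4, ?_⟩
      rw [mul_smul, ← h1, smul_smul, inv_mul_cancel₀ h3, one_smul]
      rfl
    · push Not at hc
      obtain ⟨g, hg, hg1⟩ := exists_siegel_of_orth hq hw hb hwb hc
      exact ⟨g, hg, 1, one_ne_zero, by rw [hg1, one_smul]⟩
  · -- opposite
    set t := polar q w b with ht
    obtain ⟨w', hw'⟩ : ∃ w', w' = t⁻¹ • b := ⟨_, rfl⟩
    have hyp : Hyp q w w' := ⟨hw, by rw [hw', QuadraticMap.map_smul, hb, smul_zero],
      by rw [hw', polar_smul_right, smul_eq_mul, ← ht, inv_mul_cancel₀ hwb]⟩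
    obtain ⟨x, hx1, hx2, hx3⟩ := exists_nonsing_perp hq hd hyp
    have ha : polar q w' (-(q x)⁻¹ • x) = 0 := by rw [polar_smul_right, hx2, smul_zero]
    have hb' : polar q w (-x) = 0 := by rw [polar_neg_right, hx1, neg_zero]
    refine ⟨siegel q w (-x) hw hb' * siegel q w' (-(q x)⁻¹ • x) hyp.right ha,
      (E q).mul_mem (siegel_mem_E _ _) (siegel_mem_E _ _), -(q x)⁻¹ * t⁻¹,
      mul_ne_zero (neg_ne_zero.2 (inv_ne_zero hx3)) (inv_ne_zero hwb), ?_⟩
    rw [LinearEquiv.mul_apply]
    have e1 : siegel q w' (-(q x)⁻¹ • x) hyp.right ha w = w - (q x)⁻¹ • x - (q x)⁻¹ • w' := by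
      rw [siegel_apply, hyp.pair', polar_smul_left, polar_comm q x w, hx1, QuadraticMap.map_smul]
      simp only [smul_eq_mul, mul_zero, zero_smul, sub_zero, one_smul, mul_one]
      have : -(q x)⁻¹ * -(q x)⁻¹ * q x = (q x)⁻¹ := by field_simp
      rw [this]
      module
    rw [e1, siegel_apply]
    simp only [polar_sub_right, polar_smul_right, hyp.polar_left, hx1, hyp.pair, polar_neg_left,
      polar_comm q x w, polar_self' x, polar_comm q x w', hx2, QuadraticMap.map_neg, smul_eq_mul,
      mul_zero, sub_zero, zero_sub, mul_one, neg_zero, mul_neg, neg_neg, sub_neg_eq_add]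
    have e2 : b = t • w' := by rw [hw', smul_smul, mul_inv_cancel₀ hwb, one_smul]
    have e3 : (q x)⁻¹ * (2 * q x) = 2 := by field_simp
    have e4 : q x * (q x)⁻¹ = 1 := mul_inv_cancel₀ hx3
    have e5 : (-(q x)⁻¹ * t⁻¹) • b = -(q x)⁻¹ • w' := by rw [hw', smul_smul]
    rw [e5]
    linear_combination (norm := skip) (0 : F) • e5
    simp only [e3, e4]
    module

/-- A partner perpendicular to a nonsingular vector. -/
theorem exists_pp (h2 : (2 : F) ≠ 0) (hq : Nondeg q) {u z : V} (hu : q u = 0) (hu0 : u ≠ 0)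
    (hz : polar q u z = 0) (hqz : q z ≠ 0) : ∃ b, Hyp q u b ∧ polar q z b = 0 := by
  obtain ⟨b0, hb0⟩ := LieClassical.OrthTrans.exists_hyp hq hu hu0
  set c := (2 * q z)⁻¹ * polar q z b0 with hc
  have h2z : (2 * q z) ≠ 0 := mul_ne_zero h2 hqz
  set b1 := b0 - c • z with hb1
  have h1 : polar q z b1 = 0 := by
    rw [hb1, polar_sub_right, polar_smul_right, polar_self', hc, smul_eq_mul]
    field_simp
    ring
  have h3 : polar q u b1 = 1 := by
    rw [hb1, polar_sub_right, polar_smul_right, hz, hb0.pair, smul_zero, sub_zero]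
  refine ⟨b1 - q b1 • u, ⟨hu, ?_, ?_⟩, ?_⟩
  · rw [sub_eq_add_neg, ← neg_smul, Q_add, QuadraticMap.map_smul, hu, polar_smul_right,
      polar_comm q b1 u, h3]
    simp
  · rw [polar_sub_right, polar_smul_right, polar_self_of_sing hu, h3, smul_zero, sub_zero]
  · rw [polar_sub_right, polar_smul_right, polar_comm q z u, hz, h1, smul_zero, sub_zero]

/-! ### symmetric and skew operators -/

/-- symmetric -/
def Sy (q : QuadraticForm F V) (f : Module.End F V) : Prop := ∀ x y, polar q x (f y) = polar q (f x) y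

/-- skew -/
def Sk (q : QuadraticForm F V) (f : Module.End F V) : Prop := ∀ x y, polar q x (f y) = - polar q (f x) y

theorem sy_om (u : V) : Sy q (om q u) := by
  intro x y
  rw [om_apply, om_apply, polar_smul_right, polar_smul_left, polar_comm q x u, smul_eq_mul, smul_eq_mul,
    mul_comm]

theorem sk_nn (u z : V) : Sk q (nn q u z) := by
  intro x y
  rw [nn_apply, nn_apply]
  simp only [polar_sub_right, polar_smul_right, polar_sub_left, polar_smul_left, smul_eq_mul,
    polar_comm q x z, polar_comm q x u]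
  ring

theorem Sk.self (h2 : (2 : F) ≠ 0) {f : Module.End F V} (hf : Sk q f) (x : V) : polar q x (f x) = 0 := by
  have h1 := hf x x
  rw [polar_comm q (f x) x] at h1
  have h3 : 2 * polar q x (f x) = 0 := by linear_combination h1
  exact (mul_eq_zero.1 h3).resolve_left h2

theorem Sy.mul_comm' {f g : Module.End F V} (hf : Sy q f) (hg : Sy q g) (u : V) :
    polar q u (g (f u)) = polar q u (f (g u)) := by
  rw [hf, hg, polar_comm]

theorem Sk.mul_comm' {f g : Module.End F V} (hf : Sk q f) (hg : Sk q g) (u : V) :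
    polar q u (g (f u)) = polar q u (f (g u)) := by
  rw [hf, hg, polar_comm]

theorem Sk.mul_anti {f g : Module.End F V} (hf : Sk q f) (hg : Sy q g) (u : V) :
    polar q u (g (f u)) = - polar q u (f (g u)) := by
  rw [hf, hg, polar_comm, neg_neg]

/-! ### calculus of `om` and `nn` -/

theorem cj_om {e : V ≃ₗ[F] V} (he : e ∈ O q) (w : V) : cj e (om q w) = om q (e w) := by
  refine LinearMap.ext fun v => ?_
  rw [cj_apply, om_apply, om_apply, map_smul]
  have h1 : polar q w (e⁻¹ v) = polar q (e w) v := by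
    rw [← polar_map he w (e⁻¹ v)]
    congr 1
    exact LinearEquiv.apply_symm_apply e v
  rw [h1]

theorem cj_nn {e : V ≃ₗ[F] V} (he : e ∈ O q) (w z : V) : cj e (nn q w z) = nn q (e w) (e z) := by
  refine LinearMap.ext fun v => ?_
  have h1 : ∀ w, polar q w (e⁻¹ v) = polar q (e w) v := by
    intro w
    rw [← polar_map he w (e⁻¹ v)]
    congr 1
    exact LinearEquiv.apply_symm_apply e v
  rw [cj_apply, nn_apply, nn_apply, map_sub, map_smul, map_smul, h1, h1]

theorem nn_smul_right (u z : V) (c : F) : nn q u (c • z) = c • nn q u z := by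
  refine LinearMap.ext fun v => ?_
  rw [LinearMap.smul_apply, nn_apply, nn_apply, polar_smul_left, smul_eq_mul]
  module

theorem nn_smul_left (u z : V) (c : F) : nn q (c • u) z = c • nn q u z := by
  refine LinearMap.ext fun v => ?_
  rw [LinearMap.smul_apply, nn_apply, nn_apply, polar_smul_left, smul_eq_mul]
  module

/-- `ω_u f ω_u = B(u, f u) ω_u` -/
theorem om_mul_om (u : V) (f : Module.End F V) : om q u * f * om q u = polar q u (f u) • om q u := by
  refine LinearMap.ext fun v => ?_
  rw [Module.End.mul_apply, Module.End.mul_apply, LinearMap.smul_apply, om_apply, om_apply, map_smul,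
    polar_smul_right, smul_eq_mul, smul_smul, mul_comm]

theorem om_nn_hyp {w w' : V} (h : Hyp q w w') : om q w * nn q w w' = om q w := by
  refine LinearMap.ext fun v => ?_
  rw [Module.End.mul_apply, om_apply, nn_apply, polar_sub_right, polar_smul_right, polar_smul_right, h.pair,
    h.polar_left, om_apply]
  simp

theorem nn_om_hyp {w w' : V} (h : Hyp q w w') : nn q w w' * om q w = (-1 : F) • om q w := by
  refine LinearMap.ext fun v => ?_
  rw [Module.End.mul_apply, om_apply, map_smul, nn_apply, h.polar_left, h.pair', LinearMap.smul_apply, om_apply]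
  module

/-- `[u ∧ z, u ∧ u'] = u ∧ z` for a partner `u' ⊥ z` -/
theorem nn_comm_hyp {u z u' : V} (h : Hyp q u u') (hz : polar q u z = 0) (hz' : polar q z u' = 0) :
    nn q u z * nn q u u' + (-1 : F) • (nn q u u' * nn q u z) = nn q u z := by
  refine LinearMap.ext fun v => ?_
  simp only [LinearMap.add_apply, LinearMap.smul_apply, Module.End.mul_apply, nn_apply, map_sub, map_smul, h.polar_left, h.pair, h.pair',
    hz, hz', polar_comm q u' z, polar_comm q z u, polar_sub_right, polar_smul_right, smul_eq_mul]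
  module

/-! ### non-vanishing -/

theorem nv_om (h2 : (2 : F) ≠ 0) (hq : Nondeg q) (hd : 3 ≤ Module.finrank F V) {v : V}
    (hv : q v = 0) (hv0 : v ≠ 0) :
    ∃ e ∈ E q, ∃ u, u ≠ 0 ∧ q u = 0 ∧ polar q u (om q v (cj e (om q v) u)) ≠ 0 := by
  obtain ⟨b, hyp⟩ := LieClassical.OrthTrans.exists_hyp hq hv hv0
  obtain ⟨x, hx1, hx2, hx3⟩ := exists_nonsing_perp hq hd hyp
  have hx2' : polar q b (-x) = 0 := by rw [polar_neg_right, hx2, neg_zero]
  have hO := siegel_mem_O hyp.right hx2
  have hO' := siegel_mem_O hyp.right hx2'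
  refine ⟨siegel q b x hyp.right hx2, siegel_mem_E _ _, siegel q b (-x) hyp.right hx2' v, ?_, ?_, ?_⟩
  · intro h
    exact hv0 ((map_eq_zero_iff _ (siegel q b (-x) hyp.right hx2').injective).1 h)
  · rw [hO', hv]
  · rw [cj_om hO]
    have e1 : siegel q b x hyp.right hx2 v = v + x - q x • b := by
      rw [siegel_apply, hyp.pair', polar_comm q x v, hx1]
      module
    have e2 : siegel q b (-x) hyp.right hx2' v = v - x - q x • b := by
      rw [siegel_apply, hyp.pair', polar_neg_left, polar_comm q x v, hx1, QuadraticMap.map_neg]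
      module
    rw [e1, e2, om_apply, om_apply]
    simp only [polar_smul_right, polar_add_right, polar_sub_right, polar_add_left, polar_sub_left,
      polar_smul_left, hyp.polar_left, hyp.polar_right, hyp.pair, hyp.pair', hx1, hx2, polar_comm q x v,
      polar_comm q x b, polar_self' x, smul_eq_mul]
    have h4 : (4 : F) ≠ 0 := by
      have : (4 : F) = 2 * 2 := by norm_num
      rw [this]
      exact mul_ne_zero h2 h2
    have : (-(4 * (q x * q x * q x)) : F) ≠ 0 := neg_ne_zero.2 (mul_ne_zero h4 (mul_ne_zero (mul_ne_zero hx3 hx3) hx3))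
    intro h
    apply this
    rw [← h]
    ring

theorem nv_nn (h2 : (2 : F) ≠ 0) (hq : Nondeg q) {u z : V}
    (hu : q u = 0) (hu0 : u ≠ 0) (hz : polar q u z = 0) (hqz : q z ≠ 0) :
    ∃ e ∈ E q, ∃ b, b ≠ 0 ∧ q b = 0 ∧ polar q b (nn q u z (cj e (nn q u z) b)) ≠ 0 := by
  obtain ⟨b, hyp, hb⟩ := exists_pp h2 hq hu hu0 hz hqz
  refine ⟨1, (E q).one_mem, b, hyp.right_ne, hyp.right, ?_⟩
  have h1 : cj (1 : V ≃ₗ[F] V) (nn q u z) = nn q u z := one_cj _
  rw [h1, ← Module.End.mul_apply, nn_sq hu hz, LinearMap.smul_apply, om_apply, hyp.pair, one_smul,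
    polar_smul_right, hyp.pair', smul_eq_mul, mul_one]
  exact neg_ne_zero.2 (mul_ne_zero h2 hqz)

theorem nv_mix (h2 : (2 : F) ≠ 0) (hq : Nondeg q) (hd : 3 ≤ Module.finrank F V) {u z w : V}
    (hu : q u = 0) (hu0 : u ≠ 0) (hz : polar q u z = 0) (hqz : q z ≠ 0) (hw : q w = 0) (hw0 : w ≠ 0) :
    ∃ e ∈ E q, ∃ y, y ≠ 0 ∧ q y = 0 ∧ polar q y (nn q u z (cj e (om q w) y)) ≠ 0 := by
  obtain ⟨b, hyp, hb⟩ := exists_pp h2 hq hu hu0 hz hqz
  obtain ⟨e, he, s, hs, hes⟩ := exists_line h2 hq hd hw hw0 hyp.right hyp.right_ne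
  have hbz : polar q b z = 0 := by rw [polar_comm]; exact hb
  have hO := siegel_mem_O hyp.right hbz
  refine ⟨e, he, siegel q b z hyp.right hbz u, ?_, ?_, ?_⟩
  · intro h
    exact hu0 ((map_eq_zero_iff _ (siegel q b z hyp.right hbz).injective).1 h)
  · rw [hO, hu]
  · rw [cj_om (E_le_O he), hes]
    have e1 : siegel q b z hyp.right hbz u = u + z - q z • b := by
      rw [siegel_apply, hyp.pair', polar_comm q z u, hz]
      module
    rw [e1, om_apply, map_smul, map_smul, nn_apply]
    simp only [polar_smul_right, polar_add_right, polar_sub_right, polar_add_left, polar_sub_left,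
      polar_smul_left, hyp.polar_left, hyp.polar_right, hyp.pair, hyp.pair', hz, hb, hbz, polar_comm q z u,
      polar_self' z, smul_eq_mul]
    have : (s * s * (2 * q z) : F) ≠ 0 := mul_ne_zero (mul_ne_zero hs hs) (mul_ne_zero h2 hqz)
    intro h
    apply this
    rw [← h]
    ring

/-- Lemma T. -/
theorem lemT (h2 : (2 : F) ≠ 0) (hq : Nondeg q) (hd : 3 ≤ Module.finrank F V)
    {Z : AddSubgroup (Module.End F V)} (hZ : ∀ e ∈ E q, ∀ f ∈ Z, cj e f ∈ Z) {u z : V}
    (hu : q u = 0) (hu0 : u ≠ 0) (hz : polar q u z = 0) (hqz : q z ≠ 0) (h : nn q u z ∈ Z)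
    {w w' : V} (hyp : Hyp q w w') : ∃ r : F, r ≠ 0 ∧ r • nn q w w' ∈ Z := by
  obtain ⟨b, hub, hb⟩ := exists_pp h2 hq hu hu0 hz hqz
  have hbz : polar q b z = 0 := by rw [polar_comm]; exact hb
  have hbz' : polar q b (-z) = 0 := by rw [polar_neg_right, hbz, neg_zero]
  have h4 : (4 : F) ≠ 0 := by
    have : (4 : F) = 2 * 2 := by norm_num
    rw [this]
    exact mul_ne_zero h2 h2
  have h1 : (-(4 * q z)) • nn q u b ∈ Z := by
    have m1 := hZ _ (siegel_mem_E hub.right hbz) _ h
    have m2 := hZ _ (siegel_mem_E hub.right hbz') _ h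
    have m3 := Z.sub_mem m1 m2
    rw [cj_nn (siegel_mem_O hub.right hbz), cj_nn (siegel_mem_O hub.right hbz')] at m3
    convert m3 using 1
    refine LinearMap.ext fun v => ?_
    simp only [siegel_apply, QuadraticMap.map_neg, polar_neg_left, polar_self' z, hub.pair', hbz,
      polar_comm q z u, hz, LinearMap.sub_apply, LinearMap.smul_apply, nn_apply, polar_add_left, polar_sub_left,
      polar_smul_left, smul_eq_mul]
    module
  obtain ⟨e, he, s, hs, hes⟩ := exists_line h2 hq hd hu hu0 hyp.left hyp.left_ne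
  have h3 := hZ e he _ h1
  have hyp2 : Hyp q w (s • e b) := by
    refine ⟨hyp.left, ?_, ?_⟩
    · rw [QuadraticMap.map_smul, (hub.map (E_le_O he)).right, smul_zero]
    · have h5 := (hub.map (E_le_O he)).pair
      rw [hes, polar_smul_left, smul_eq_mul] at h5
      rw [polar_smul_right, smul_eq_mul]
      exact h5
  obtain ⟨g, hg, hg1, hg2⟩ := siegel_partner hyp2 hyp
  have h5 := hZ g hg _ h3
  refine ⟨-(4 * q z), neg_ne_zero.2 (mul_ne_zero h4 hqz), ?_⟩
  have e1 : cj g (cj e ((-(4 * q z)) • nn q u b)) = (-(4 * q z)) • nn q w w' := by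
    rw [cj_smul', cj_smul', cj_nn (E_le_O he), cj_nn (E_le_O hg), hes]
    congr 1
    rw [map_smul, hg1, nn_smul_left, ← nn_smul_right, ← map_smul, hg2]
  rw [← e1]
  exact h5

end Cfsg.Agent.H296.C7
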